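import Cfsg.Agent.H23.GaTr
import Cfsg.Agent.H97.GaCen
import Cfsg.Agent.S1573

/-! The Griess algebra: the axis of a minimal vector and its small eigenspace. -/

set_option autoImplicit false
set_option linter.unusedSectionVars false

namespace Cfsg.Agent.H97.GA.Ax

open H15 H23.GA Matrix
open scoped Kronecker Classical

attribute [-simp] Fintype.sum_option Fintype.prod_option

variable {F : Type*} [Field F] [Big F] [CharZero F] {r : Vec}

/-- the vectors of the plane attached to a minimal vector -/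
noncomputable def ax (r : Vec) (β γ : F) : B F := mk (β • PP F r) (fun v => γ * del r v) 0

theorem sM_ax (β γ : F) : sM (ax r β γ) = β • PP F r :=
  sM_mk (by rw [transpose_smul, PP_transpose]) _ _

theorem ph_del' (hr : IsMin r) (s : Matrix GolayPt GolayPt F) (γ : F) (u : Cw × GolayPt → F)
    (v : Vec) : ph (mk s (fun v => γ * del r v) u) v = γ * del r v := by
  by_cases hv : IsMin v
  · exact ph_mk _ (fun w _ => by rw [del_neg]) _ hv
  · rw [ph_of_not _ hv, del, if_neg, mul_zero]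
    rintro (rfl | rfl)
    exacts [hv hr, hv hr.neg]

theorem ph_ax (hr : IsMin r) (β γ : F) (v : Vec) : ph (ax r β γ) v = γ * del r v := ph_del' hr _ _ _ v

theorem uu_ax (β γ : F) : uu (ax r β γ) = 0 := rfl

theorem del_self (r : Vec) : (del r r : F) = 1 := if_pos (.inl rfl)

theorem ax_lin (hr : IsMin r) (s t β γ β' γ' : F) :
    s • ax r β γ + t • ax r β' γ' = ax r (s * β + t * β') (s * γ + t * γ') :=
  B_ext (by simp only [sM_add, sM_smul, sM_ax, smul_smul, add_smul])
    (fun v _ => by simp only [ph_add, ph_smul, ph_ax hr]; ring)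
    (by simp only [uu_add, uu_smul, uu_ax, smul_zero, add_zero])

theorem sum_neg (f : Vec → F) : ∑ v ∈ M2, f (-v) = ∑ v ∈ M2, f v :=
  Finset.sum_nbij' Neg.neg Neg.neg (fun _ h => mem_M2.2 (mem_M2.1 h).neg)
    (fun _ h => mem_M2.2 (mem_M2.1 h).neg) (fun v _ => neg_neg v) (fun v _ => neg_neg v) fun _ _ => rfl

theorem T3_ax (hr : IsMin r) (β γ : F) (b c : B F) : T3 (ph (ax r β γ)) (ph b) (ph c) =
    2 * γ * ∑ t ∈ M2, chi F (bet r t) * ph b t * ph c (r + t) := by
  have e := sum_del hr fun s => γ * ∑ t ∈ M2, chi F (bet s t) * ph b t * ph c (s + t)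
  rw [← sum_neg fun t => chi F (bet (-r) t) * ph b t * ph c (-r + t)] at e
  simp only [bet_neg_left, bet_neg_right, ph_neg, ← neg_add] at e
  rw [mul_assoc, two_mul, ← e, T3]
  refine Finset.sum_congr rfl fun s _ => ?_
  rw [Finset.mul_sum, Finset.sum_mul]
  exact Finset.sum_congr rfl fun t _ => by rw [ph_ax hr]; ring

theorem Tr_ax (hr : IsMin r) (β γ : F) (b c : B F) : Tr (ax r β γ) b c =
    3072 * β * trace (PP F r * sM b * sM c) +
      48 * β * ∑ v ∈ M2, (dotInt v r : F) ^ 2 * (ph b v * ph c v) +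
      96 * γ * (qv (sM b) r * ph c r + qv (sM c) r * ph b r) +
      768 * γ * ∑ t ∈ M2, chi F (bet r t) * ph b t * ph c (r + t) +
      2 * (uu b ⬝ᵥ Lb (ax r β γ) *ᵥ uu c) := by
  have e := sum_del hr fun v => γ * (qv (sM b) v * ph c v + qv (sM c) v * ph b v)
  simp only [qv_neg, ph_neg] at e
  rw [Tr_eq, T3_ax hr, uu_ax, zero_dotProduct, zero_dotProduct, sM_ax, Finset.sum_congr rfl
    (g := fun v => β * ((dotInt v r : F) ^ 2 * (ph b v * ph c v)) +
      γ * (qv (sM b) v * ph c v + qv (sM c) v * ph b v) * del r v)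
    fun v _ => by rw [qv_smul, qv_PP, ph_ax hr]; ring, Finset.sum_add_distrib, e, ← Finset.mul_sum,
    Matrix.smul_mul, Matrix.smul_mul, trace_smul, smul_eq_mul]
  ring

theorem Nb_ax (hr : IsMin r) (β γ : F) (c : B F) :
    Nb (ax r β γ) c = 2 * β * qv (sM c) r + 2 * γ * ph c r := by
  have e := sum_del hr fun v => γ * ph c v
  simp only [ph_neg] at e
  rw [Nb, uu_ax, zero_dotProduct, sM_ax, Matrix.smul_mul, trace_smul, trace_PP_mul,
    Finset.sum_congr rfl (g := fun v => γ * ph c v * del r v) fun v _ => by rw [ph_ax hr]; ring, e,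
    smul_eq_mul]
  ring

theorem not_min_two (hr : IsMin r) : ¬ IsMin (r + r) := fun h => h.not_two ⟨r, hr.1, rfl⟩

theorem not_min_zero : ¬ IsMin 0 := fun h => h.not_two ⟨0, zero_mem _, by simp⟩

theorem ad_ax (hr : IsMin r) (β γ : F) :
    ad (ax r β γ) (ax r β γ) = ax r (49152 * β ^ 2 + 48 * γ ^ 2) (98304 * β * γ) := by
  refine Nb_ext fun c => ?_
  have e1 := sum_del hr fun v => (dotInt v r : F) ^ 2 * (γ * ph c v)
  have e2 := sum_del hr fun t => chi F (bet r t) * γ * ph c (r + t)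
  have e3 : dotInt r r = 32 := (dot_self r).trans hr.2
  simp only [dot_neg_left, ph_neg, e3, add_neg_cancel, ph_of_not c (not_min_two hr),
    ph_of_not c not_min_zero] at e1 e2
  rw [Nb_ad, Tr_ax hr, Nb_ax hr, uu_ax, zero_dotProduct, sM_ax, qv_smul, qv_PP, e3, ph_ax hr, del_self,
    Matrix.mul_smul, PP_mul_self hr, Matrix.smul_mul, Matrix.smul_mul, trace_smul, trace_smul,
    trace_PP_mul, Finset.sum_congr rfl (g := fun v => (dotInt v r : F) ^ 2 * (γ * ph c v) * del r v)
      fun v _ => by rw [ph_ax hr]; ring, e1,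
    Finset.sum_congr rfl (g := fun t => chi F (bet r t) * γ * ph c (r + t) * del r t)
      fun v _ => by rw [ph_ax hr]; ring, e2]
  simp only [smul_eq_mul]
  push_cast
  ring

theorem Lb_ax (hr : IsMin r) (β γ : F) (u : Cw × GolayPt → F) : Lb (ax r β γ) *ᵥ u =
    (192 * β) • ((1 : Matrix Cw Cw F) ⊗ₖ PP F r) *ᵥ u + (768 * β) • u +
      (24 * γ) • (XV F r ⊗ₖ (1 : Matrix GolayPt GolayPt F)) *ᵥ u -
      (6 * γ) • (XV F r ⊗ₖ (1 : Matrix GolayPt GolayPt F)) *ᵥ ((1 : Matrix Cw Cw F) ⊗ₖ PP F r) *ᵥ u := by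
  have e := Cen2.LL_del hr fun v _ => ph_ax hr β γ v
  rw [LL, smul_zero, trace_zero, mul_zero, zero_smul, add_zero, kronecker_zero, zero_add] at e
  rw [Lb, LL, e, sM_ax, trace_smul, trace_PP hr, mulVec_mulVec, ← mul_kronecker_mul, Matrix.mul_one,
    Matrix.one_mul, sub_eq_add_neg, ← neg_one_smul F (PP F r)]
  simp only [kronecker_add, kronecker_smul, add_mulVec, smul_mulVec, one_kronecker_one, one_mulVec,
    smul_eq_mul]
  module

variable (r) in
/-- the eigenspace -/
def WW (η : F) : Submodule F (B F) where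
  carrier := {b | ad (ax r 1 (32 * η)) b = (24576 : F) • b}
  zero_mem' := by simp
  add_mem' {a b} ha hb := by
    rw [Set.mem_ofPred_eq, map_add, ha, hb, smul_add]
  smul_mem' t b hb := by
    rw [Set.mem_ofPred_eq, map_smul, hb, smul_comm]

theorem mem_WW {η : F} {b : B F} :
    b ∈ WW r η ↔ ∀ c, Tr (ax r 1 (32 * η)) b c = 24576 * Nb b c :=
  ⟨fun h c => by rw [← Nb_ad, ← Nb_smul]; exact congrArg (Nb · c) h,
    fun h => Nb_ext fun c => by rw [Nb_ad, Nb_smul, h]⟩

theorem Nb_mk (b : B F) (u : Cw × GolayPt → F) : Nb b (mk 0 0 u) = uu b ⬝ᵥ u := by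
  simp [Nb, sM_mk transpose_zero, ph_mk_zero, uu_mk]

theorem XX_XX (hr : IsMin r) (u : Cw × GolayPt → F) :
    (XV F r ⊗ₖ (1 : Matrix GolayPt GolayPt F)) *ᵥ (XV F r ⊗ₖ (1 : Matrix GolayPt GolayPt F)) *ᵥ u = u := by
  rw [mulVec_mulVec, ← mul_kronecker_mul, XV_mul_self F hr.1, qn_min hr.2, chi_zero, one_smul,
    Matrix.one_mul, one_kronecker_one, one_mulVec]

theorem QQ_QQ (hr : IsMin r) (u : Cw × GolayPt → F) :
    ((1 : Matrix Cw Cw F) ⊗ₖ PP F r) *ᵥ ((1 : Matrix Cw Cw F) ⊗ₖ PP F r) *ᵥ u =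
      (32 : F) • ((1 : Matrix Cw Cw F) ⊗ₖ PP F r) *ᵥ u := by
  rw [mulVec_mulVec, ← mul_kronecker_mul, PP_mul_self hr, Matrix.one_mul, kronecker_smul, smul_mulVec]

theorem QQ_XX (u : Cw × GolayPt → F) :
    ((1 : Matrix Cw Cw F) ⊗ₖ PP F r) *ᵥ (XV F r ⊗ₖ (1 : Matrix GolayPt GolayPt F)) *ᵥ u =
      (XV F r ⊗ₖ (1 : Matrix GolayPt GolayPt F)) *ᵥ ((1 : Matrix Cw Cw F) ⊗ₖ PP F r) *ᵥ u := by
  simp only [mulVec_mulVec, ← mul_kronecker_mul, Matrix.one_mul, Matrix.mul_one]

section
variable (hr : IsMin r) {η : F} (hη : η = 1 ∨ η = -1) {b : B F} (hb : b ∈ WW r η)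
include hr hη hb

theorem WW_uu : ((1 : Matrix Cw Cw F) ⊗ₖ PP F r) *ᵥ uu b = (32 : F) • uu b ∧
    (XV F r ⊗ₖ (1 : Matrix GolayPt GolayPt F)) *ᵥ uu b = -η • uu b := by
  have e0 : Lb (ax r 1 (32 * η)) *ᵥ uu b = (12288 : F) • uu b := funext fun p => by
    have := mem_WW.1 hb (mk 0 0 (Pi.single p 1))
    rw [Tr_ax hr, Nb_mk, Lb_dot] at this
    simp only [sM_mk transpose_zero, ph_mk_zero, uu_mk, qv_zero, mul_zero, trace_zero, zero_mul,
      Finset.sum_const_zero, add_zero, zero_add, single_dotProduct, dotProduct_single, one_mul,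
      mul_one] at this
    rw [Pi.smul_apply, smul_eq_mul]
    linear_combination (1 / 2) * this
  rw [Lb_ax hr] at e0
  have e1 := congrArg (((1 : Matrix Cw Cw F) ⊗ₖ PP F r) *ᵥ ·) e0
  have e2 := congrArg ((XV F r ⊗ₖ (1 : Matrix GolayPt GolayPt F)) *ᵥ ·) e0
  simp only [mulVec_add, mulVec_sub, mulVec_smul, XX_XX hr, QQ_QQ hr, QQ_XX] at e1 e2
  generalize (XV F r ⊗ₖ (1 : Matrix GolayPt GolayPt F)) *ᵥ ((1 : Matrix Cw Cw F) ⊗ₖ PP F r) *ᵥ uu b =
    E at e0 e1 e2
  generalize (XV F r ⊗ₖ (1 : Matrix GolayPt GolayPt F)) *ᵥ uu b = C at e0 e1 e2 ⊢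
  generalize ((1 : Matrix Cw Cw F) ⊗ₖ PP F r) *ᵥ uu b = Q at e0 e1 e2 ⊢
  generalize uu b = A at e0 e1 e2 ⊢
  constructor <;> funext p <;> have a0 := congrFun e0 p <;> have a1 := congrFun e1 p <;>
    have a2 := congrFun e2 p <;> simp only [Pi.add_apply, Pi.sub_apply, Pi.smul_apply, smul_eq_mul]
      at a0 a1 a2 ⊢ <;> rcases hη with rfl | rfl
  · linear_combination (5 / 1792) * a0 + (1 / 5376) * a2 - (1 / 10752) * a1
  · linear_combination (5 / 1792) * a0 - (1 / 5376) * a2 - (1 / 10752) * a1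
  · linear_combination -(1 / 10752) * a0 - (1 / 10752) * a2
  · linear_combination (1 / 10752) * a0 - (1 / 10752) * a2

omit hη in
theorem WW_sym {s : Matrix GolayPt GolayPt F} (hs : sᵀ = s) :
    trace (PP F r * sM b * s) + η * (qv s r * ph b r) = 16 * trace (sM b * s) := by
  have := mem_WW.1 hb (mk s 0 0)
  rw [Tr_ax hr, Nb] at this
  simp only [sM_mk hs, ph_mk_zero, uu_mk, mul_zero, Finset.sum_const_zero, add_zero, zero_add,
    mulVec_zero, dotProduct_zero] at this
  linear_combination (1 / 3072) * this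

omit hη in
theorem WW_del {v : Vec} (hv : IsMin v) : (dotInt v r : F) ^ 2 * ph b v +
    32 * η * qv (sM b) r * del v r + 256 * η * (chi F (bet r (v - r)) * ph b (v - r) +
      chi F (bet r (-v - r)) * ph b (v + r)) = 512 * ph b v := by
  have := mem_WW.1 hb (ax v 0 1)
  have e1 := sum_del hv fun w => (dotInt w r : F) ^ 2 * ph b w
  have e2 : ∀ w, ∑ t ∈ M2, chi F (bet r t) * ph b t * (if t = w then 1 else 0) =
      chi F (bet r w) * ph b w := fun w => by
    simp only [mul_ite, mul_one, mul_zero, Finset.sum_ite_eq', mem_M2]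
    split_ifs with h
    · rfl
    · rw [ph_of_not _ h, mul_zero]
  have e3 : ∀ t, (del v (r + t) : F) = (if t = v - r then 1 else 0) + if t = -v - r then 1 else 0 :=
    fun t => by
      simp only [del, eq_sub_iff_add_eq', ite_or]
      split_ifs with h1 h2
      · exact absurd (h1.symm.trans h2) hv.ne_neg
      all_goals simp
  rw [Tr_ax hr, Nb_comm, Nb_ax hv] at this
  simp only [sM_ax, ph_ax hv, uu_ax, zero_smul, one_mul, ← mul_assoc, e1, e3, mul_add, e2,
    Finset.sum_add_distrib, mul_zero, trace_zero, qv_zero, zero_mul, mulVec_zero, dotProduct_zero,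
    dot_neg_left, ph_neg] at this
  rw [show -v - r = -(v + r) by abel, ph_neg, ← show -v - r = -(v + r) by abel] at this
  push_cast at this
  linear_combination (1 / 96) * this

theorem WW_r : ph b r = 0 ∧ qv (sM b) r = 0 := by
  have e1 := WW_sym hr hb (PP_transpose r)
  have e2 := WW_del hr hb hr
  rw [trace_mul_cycle, PP_mul_self hr, Matrix.smul_mul, trace_smul, trace_mul_comm (sM b),
    trace_PP_mul, qv_PP, smul_eq_mul] at e1
  rw [sub_self, ph_of_not b not_min_zero, ph_of_not b (not_min_two hr), del_self] at e2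
  rw [(dot_self r).trans hr.2] at e1 e2
  push_cast at e1 e2
  rcases hη with rfl | rfl
  · exact ⟨by linear_combination (1 / 768) * e1 - (1 / 1536) * e2,
      by linear_combination -(1 / 48) * e1 + (1 / 24) * e2⟩
  · exact ⟨by linear_combination -(1 / 768) * e1 - (1 / 1536) * e2,
      by linear_combination -(1 / 48) * e1 - (1 / 24) * e2⟩

theorem WW_sM (h : sM b *ᵥ vF F r = 0) : sM b = 0 := Cen0.sym_zero (sM_symm b) fun u => by
  have e := WW_sym hr hb (transpose_vecMulVec u u)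
  rw [(WW_r hr hη hb).1, PP, vecMulVec_mul, ← mulVec_transpose, sM_symm, h, vecMulVec_zero,
    Matrix.zero_mul, trace_zero, mul_vecMulVec, trace_vecMulVec, dotProduct_comm] at e
  linear_combination -(1 / 16) * e

theorem WW_ph {v : Vec} (hv : IsMin v) (h : ph b v ≠ 0) :
    (dotInt r v = -16 ∧ ph b (v + r) ≠ 0) ∨ dotInt r v = 16 := by
  have e := WW_del hr hb hv
  rw [(WW_r hr hη hb).2, dot_comm] at e
  obtain ⟨k, hk⟩ := eight_dvd_dot hr.1 hv.1
  have n1 := sqNorm_add v r
  have n2 := sqNorm_sub v r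
  rw [hr.2, hv.2, dot_comm] at n1 n2
  have m1 : v + r ≠ 0 := fun c => h (by rw [eq_neg_of_add_eq_zero_left c, ph_neg, (WW_r hr hη hb).1])
  have m2 : v - r ≠ 0 := fun c => h (by rw [sub_eq_zero.1 c, (WW_r hr hη hb).1])
  have k1 := min_norm (add_mem hv.1 hr.1) m1
  have k2 := min_norm (sub_mem hv.1 hr.1) m2
  by_contra c
  have p2 : ph b (v - r) = 0 := ph_of_not b fun m => c (.inr (by have := m.2; omega))
  have p1 : ph b (v + r) = 0 := by_contra fun d =>
    c (.inl ⟨by have := (by_contra fun m => d (ph_of_not b m) : IsMin (v + r)).2; omega, d⟩)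
  rw [p1, p2] at e
  refine h (mul_left_cancel₀ (a := (dotInt r v : F) ^ 2 - 512) ?_ (by linear_combination e))
  have : (dotInt r v) ^ 2 - 512 ≠ 0 := by
    have : -16 ≤ dotInt r v ∧ dotInt r v ≤ 16 := by omega
    nlinarith [this.1, this.2]
  exact_mod_cast this

theorem WW_fix : (if η = 1 then zL F (xL F r b) else xL F r b) = b := by
  have e1 : ∀ v, IsMin v → ph (xL F r b) v = ph b v := fun v hv => by
    rw [ph_xL hr.1]
    by_cases h : ph b v = 0
    · rw [h, mul_zero]
    · rcases WW_ph hr hη hb hv h with ⟨e, -⟩ | e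
      · rw [ip_of (k := -2) e]; exact one_mul _
      · rw [ip_of (k := 2) e]; exact one_mul _
  have e2 := (WW_uu hr hη hb).2
  split_ifs with h
  · exact B_ext (by rw [sM_zL, sM_xL]) (fun v hv => by rw [ph_zL, e1 v hv])
      (by rw [uu_zL, uu_xL, e2, h, neg_smul, neg_neg, one_smul])
  · exact B_ext (sM_xL _ _) e1 (by rw [uu_xL, e2, hη.resolve_left h, neg_neg, one_smul])

end

theorem exists_ip (h : IsMin r) : ∃ w ∈ leechLattice, ip r w = 1 := by
  by_contra c
  exact h.not_two (ip_nondeg h.1 fun w hw => (zmod2_cases _).resolve_right fun e => c ⟨w, hw, e⟩)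

theorem XV_anti (hr : IsMin r) : ∃ Y : Matrix Cw Cw F, (∀ u, Y *ᵥ u = 0 → u = 0) ∧
    ∀ u, XV F r *ᵥ Y *ᵥ u = -(Y *ᵥ XV F r *ᵥ u) := by
  obtain ⟨w, hw, e⟩ := exists_ip hr
  refine ⟨XV F w, fun u h => ?_, fun u => ?_⟩
  · have := congrArg (XV F w *ᵥ ·) h
    simp only [mulVec_mulVec, XV_mul_self F hw, smul_mulVec, one_mulVec, mulVec_zero] at this
    exact (smul_eq_zero.1 this).resolve_left (chi_ne _)
  · rw [mulVec_mulVec, mulVec_mulVec, XV_comm F hr.1 hw, e, chi_one, smul_mulVec, neg_one_smul]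

variable (r) in
/-- an eigenspace of `XV` -/
noncomputable def KX (η : F) : Submodule F (Cw → F) := LinearMap.ker (toLin' (XV F r) + η • LinearMap.id)

theorem mem_KX {η : F} {u : Cw → F} : u ∈ KX r η ↔ XV F r *ᵥ u = -η • u := by
  rw [KX, LinearMap.mem_ker, neg_smul, ← add_eq_zero_iff_eq_neg]; rfl

theorem finrank_KX (hr : IsMin r) {η : F} (hη : η = 1 ∨ η = -1) :
    Module.finrank F (KX r η) ≤ 2048 := by
  obtain ⟨Y, h1, h2⟩ := XV_anti (F := F) hr
  have e1 : Module.finrank F (KX r η) ≤ Module.finrank F (KX r (-η)) :=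
    LinearMap.finrank_le_finrank_of_injective (f := (toLin' Y).restrict fun u hu => mem_KX.2 (by
      rw [toLin'_apply, h2, mem_KX.1 hu, mulVec_smul, neg_neg, neg_smul, neg_neg]))
      ((injective_iff_map_eq_zero _).2 fun u hu => Subtype.ext (h1 u (congrArg Subtype.val hu)))
  have e2 := Submodule.finrank_add_finrank_le_of_disjoint (s := KX r η) (t := KX r (-η))
    (Submodule.disjoint_def.2 fun u a b => by
      have := (mem_KX.1 a).symm.trans (mem_KX.1 b)
      rcases hη with rfl | rfl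
      · exact Cen0.self_neg (F := F) (by simpa using this.symm)
      · exact Cen0.self_neg (F := F) (by simpa using this))
  rw [Module.finrank_fintype_fun_eq_card, card_Cw] at e2
  omega

theorem exists_KX (hr : IsMin r) {η : F} (hη : η = 1 ∨ η = -1) : ∃ u ∈ KX r η, u ≠ 0 := by
  obtain ⟨Y, h1, h2⟩ := XV_anti (F := F) hr
  by_cases h : XV F r *ᵥ 1 = η • 1
  · exact ⟨Y *ᵥ 1, mem_KX.2 (by rw [h2, h, mulVec_smul, neg_smul]), fun c => one_ne_zero (h1 _ c)⟩
  · refine ⟨XV F r *ᵥ 1 - η • 1, mem_KX.2 ?_, sub_ne_zero.2 h⟩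
    rw [mulVec_sub, mulVec_mulVec, XV_mul_self F hr.1, qn_min hr.2, chi_zero, one_smul, one_mulVec,
      mulVec_smul]
    rcases hη with rfl | rfl <;> module

theorem QQ_apply (u : Cw × GolayPt → F) (e : Cw) (k : GolayPt) :
    (((1 : Matrix Cw Cw F) ⊗ₖ PP F r) *ᵥ u) (e, k) = vF F r k * ∑ l, u (e, l) * vF F r l := by
  simp only [mulVec, dotProduct, Fintype.sum_prod_type, kroneckerMap_apply, one_apply, PP,
    vecMulVec_apply, ite_mul, one_mul, zero_mul, Finset.sum_ite_irrel, Finset.sum_const_zero,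
    Finset.sum_ite_eq, Finset.mem_univ, if_true, Finset.mul_sum]
  exact Finset.sum_congr rfl fun _ _ => by ring

theorem XX_apply (u : Cw × GolayPt → F) (e : Cw) (k : GolayPt) :
    ((XV F r ⊗ₖ (1 : Matrix GolayPt GolayPt F)) *ᵥ u) (e, k) = ∑ f, XV F r e f * u (f, k) := by
  simp only [mulVec, dotProduct, Fintype.sum_prod_type, kroneckerMap_apply, one_apply, mul_ite,
    ite_mul, mul_one, mul_zero, zero_mul, Finset.sum_ite_eq, Finset.mem_univ, if_true]

theorem exists_WW (hr : IsMin r) {η : F} (hη : η = 1 ∨ η = -1) : ∃ b ∈ WW r η, zL F b ≠ b := by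
  obtain ⟨u, hu, u0⟩ := exists_KX hr hη
  set U : Cw × GolayPt → F := fun p => u p.1 * vF F r p.2 with hU
  have e1 : ((1 : Matrix Cw Cw F) ⊗ₖ PP F r) *ᵥ U = (32 : F) • U := funext fun ⟨e, k⟩ => by
    have := vF_self (F := F) hr
    simp only [QQ_apply, hU, mul_assoc, ← Finset.mul_sum, Pi.smul_apply, smul_eq_mul]
    rw [show ∑ l, vF F r l * vF F r l = 32 from this]; ring
  have e2 : (XV F r ⊗ₖ (1 : Matrix GolayPt GolayPt F)) *ᵥ U = -η • U := funext fun ⟨e, k⟩ => by
    have := congrFun (mem_KX.1 hu) e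
    simp only [XX_apply, hU, ← mul_assoc, ← Finset.sum_mul, Pi.smul_apply, smul_eq_mul] at this ⊢
    rw [← this]; rfl
  refine ⟨mk 0 0 U, mem_WW.2 fun c => ?_, fun c => u0 (funext fun e => ?_)⟩
  · rw [Tr_ax hr, Nb_comm, Nb_mk, Lb_dot, uu_mk, Lb_ax hr, e1, mulVec_smul, e2]
    simp only [sM_mk transpose_zero, ph_mk_zero, qv_zero, mul_zero, trace_zero, zero_mul,
      Finset.sum_const_zero, dotProduct_add, dotProduct_sub, dotProduct_smul, smul_eq_mul]
    rcases hη with rfl | rfl <;> ring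
  · have h0 : U = 0 := Cen0.self_neg (F := F) (congrArg uu c |>.symm.trans (uu_zL _))
    have := vF_self (F := F) hr
    refine mul_right_cancel₀ (b := (32 : F)) (by norm_num) ?_
    rw [← this, dotProduct, Finset.mul_sum, Pi.zero_apply, zero_mul]
    exact Finset.sum_eq_zero fun k _ => by rw [← mul_assoc, show u e * _ = U (e, k) from rfl, h0]; simp

theorem exists_reps (hr : IsMin r) : ∃ R : Finset Vec, R.card ≤ 2300 ∧
    ∀ v, IsMin v → dotInt r v = -16 → v ∈ R ∨ -(v + r) ∈ R := by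
  have hS := (S1573.result r hr.1 hr.2).1
  set S := {w | w ∈ leechLattice ∧ sqNorm w = 32 ∧ dotInt r w = -16}
  have hf : S.Finite := Set.finite_of_ncard_ne_zero (by omega)
  have hτ : ∀ v ∈ S, -(v + r) ∈ S := fun v ⟨h1, h2, h3⟩ => ⟨neg_mem (add_mem h1 hr.1), by
    rw [sqNorm_neg, sqNorm_add, h2, hr.2, dot_comm, h3]; rfl, by
    rw [dot_neg_right, dot_add_right, h3, dot_self, hr.2]; rfl⟩
  have hττ : ∀ v : Vec, -(-(v + r) + r) = v := fun v => by abel
  let R := hf.toFinset.filter fun v => WellOrderingRel v (-(v + r))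
  refine ⟨R, ?_, fun v hv h => ?_⟩
  · have hi : Function.Injective fun v : Vec => -(v + r) := fun a b e => by simpa using e
    have h1 : R ∪ R.image (fun v => -(v + r)) ⊆ hf.toFinset := by
      refine Finset.union_subset (Finset.filter_subset _ _) fun w hw => ?_
      obtain ⟨v, hv, rfl⟩ := Finset.mem_image.1 hw
      exact hf.mem_toFinset.2 (hτ v (hf.mem_toFinset.1 (Finset.mem_filter.1 hv).1))
    have h2 := Finset.card_le_card h1
    rw [Finset.card_union_of_disjoint (Finset.disjoint_left.2 fun w hw hw' => by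
      obtain ⟨v, hv, rfl⟩ := Finset.mem_image.1 hw'
      exact asymm (Finset.mem_filter.1 hv).2 (by simpa only [hττ] using (Finset.mem_filter.1 hw).2)),
      Finset.card_image_of_injective _ hi, ← Set.ncard_eq_toFinset_card S hf, hS] at h2
    omega
  · have m : v ∈ S := ⟨hv.1, hv.2, h⟩
    rcases trichotomous_of WellOrderingRel v (-(v + r)) with c | c | c
    · exact .inl (Finset.mem_filter.2 ⟨hf.mem_toFinset.2 m, c⟩)
    · exact absurd ⟨-v, neg_mem hv.1, by rw [← neg_add, eq_neg_iff_add_eq_zero, add_comm, add_assoc,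
        ← eq_neg_iff_add_eq_zero, ← c]⟩ hr.not_two
    · exact .inr (Finset.mem_filter.2 ⟨hf.mem_toFinset.2 (hτ v m), by rwa [hττ]⟩)

theorem finrank_WW (hr : IsMin r) {η : F} (hη : η = 1 ∨ η = -1) :
    Module.finrank F (WW r η) ≤ 4371 := by
  obtain ⟨R, hR, cov⟩ := exists_reps hr
  let l : Module.Dual F (GolayPt → F) := dotProductBilin F F (vF F r)
  have h23 := Module.Dual.finrank_ker_add_one_of_ne_zero (f := l) fun e => by
    have := LinearMap.congr_fun e (vF F r)
    exact absurd ((vF_self hr).symm.trans this) (by norm_num)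
  rw [Module.finrank_fintype_fun_eq_card, card_pt] at h23
  let Ψ : WW r η →ₗ[F] LinearMap.ker l × (R → F) × KX r η :=
    { toFun := fun b => (⟨sM b.1 *ᵥ vF F r, (WW_r hr hη b.2).2⟩, fun v => ph b.1 v,
        ⟨fun e => ∑ k, uu b.1 (e, k) * vF F r k, mem_KX.2 (funext fun e => by
          have := fun k => congrFun (WW_uu hr hη b.2).2 (e, k)
          simp only [XX_apply, Pi.smul_apply, smul_eq_mul] at this
          simp only [mulVec, dotProduct, Pi.smul_apply, smul_eq_mul, Finset.mul_sum, ← mul_assoc,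
            ← this, Finset.sum_mul]
          exact Finset.sum_comm)⟩)
      map_add' := fun a b => Prod.ext (Subtype.ext (add_mulVec (sM a.1) (sM b.1) (vF F r))) (Prod.ext
        (funext fun v => ph_add _ _ _) (Subtype.ext (funext fun e => by
          simp [uu_add, add_mul, Finset.sum_add_distrib])))
      map_smul' := fun t b => Prod.ext (Subtype.ext (smul_mulVec t (sM b.1) (vF F r))) (Prod.ext
        (funext fun v => ph_smul _ _ _) (Subtype.ext (funext fun e => by
          simp [uu_smul, Finset.mul_sum, mul_assoc]))) }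
  have hi : Function.Injective Ψ := (injective_iff_map_eq_zero _).2 fun b h => by
    have h1 : sM b.1 *ᵥ vF F r = 0 := congrArg (fun p => p.1.1) h
    have h2 : ∀ v ∈ R, ph b.1 v = 0 := fun v hv => congrFun (congrArg (fun p => p.2.1) h) ⟨v, hv⟩
    have h3 : ∀ e, ∑ k, uu b.1 (e, k) * vF F r k = 0 := congrFun (congrArg (fun p => p.2.2.1) h)
    have h4 : ∀ v, IsMin v → dotInt r v = -16 → ph b.1 v = 0 := fun v hv d => by_contra fun c => by
      rcases cov v hv d with m | m
      · exact c (h2 v m)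
      · rcases WW_ph hr hη b.2 hv c with ⟨-, e⟩ | e
        · exact e (by rw [← ph_neg, h2 _ m])
        · omega
    refine Subtype.ext (B_ext (WW_sM hr hη b.2 h1) (fun v hv => ?_) (funext fun ⟨e, k⟩ => ?_))
    · rw [ZeroMemClass.coe_zero, ph_zero]
      by_contra c
      rcases WW_ph hr hη b.2 hv c with ⟨e, -⟩ | e
      · exact c (h4 v hv e)
      · exact c (by rw [← ph_neg, h4 _ hv.neg (by rw [dot_neg_right, e])])
    · have := congrFun (WW_uu hr hη b.2).1 (e, k)
      rw [QQ_apply, h3, mul_zero, Pi.smul_apply, smul_eq_mul] at this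
      exact (mul_eq_zero.1 this.symm).resolve_left (by norm_num)
  have := LinearMap.finrank_le_finrank_of_injective hi
  rw [Module.finrank_prod, Module.finrank_prod, Module.finrank_fintype_fun_eq_card,
    Fintype.card_coe] at this
  have := finrank_KX hr hη
  omega

end Cfsg.Agent.H97.GA.Ax
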