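import Cfsg.Agent.H23.GaAx
import Cfsg.Agent.H97.GaMain
import Cfsg.Agent.H15.Pairs

/-! The Griess algebra: the centraliser of an involution of type two fixes an axis. -/

set_option autoImplicit false
set_option linter.unusedSectionVars false

namespace Cfsg.Agent.H97.GA.Ax

open H15 H23.GA Matrix
open scoped Kronecker Classical

attribute [-simp] Fintype.sum_option Fintype.prod_option

variable {F : Type*} [Field F] [Big F] [CharZero F] {r : Vec}

/-- the trace functional of an endomorphism -/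
noncomputable def lamT (T : Module.End F (B F)) : B F →ₗ[F] F :=
  LinearMap.trace F (B F) ∘ₗ LinearMap.mulLeft F T ∘ₗ ad

theorem lamT_apply (T : Module.End F (B F)) (b : B F) :
    lamT T b = LinearMap.trace F (B F) (T * ad b) := rfl

theorem lamT_conj {g : B F ≃ₗ[F] B F} (hg : g ∈ GG F) {T T' : Module.End F (B F)}
    (h : ∀ b, g (T b) = T' (g b)) (b : B F) : lamT T' (g b) = lamT T b := by
  rw [lamT_apply, lamT_apply, ← LinearMap.trace_conj' (T * ad b) g]
  refine congrArg _ (LinearMap.ext fun c => ?_)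
  obtain ⟨c, rfl⟩ := g.surjective c
  rw [LinearEquiv.conj_apply_apply, g.symm_apply_apply, Module.End.mul_apply, Module.End.mul_apply,
    h, ad_GG hg]

theorem xL_comm {v w : Vec} (hv : v ∈ leechLattice) (hw : w ∈ leechLattice) (b : B F) :
    xL F v (xL F w b) = if ip v w = 0 then xL F w (xL F v b) else zL F (xL F w (xL F v b)) := by
  have a2 : ∀ u, ph (xL F v (xL F w b)) u = ph (xL F w (xL F v b)) u := fun u => by
    rw [ph_xL hv, ph_xL hw, ph_xL hw, ph_xL hv, mul_left_comm]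
  have a3 : uu (xL F v (xL F w b)) = chi F (ip v w) • uu (xL F w (xL F v b)) := by
    simp only [uu_xL, mulVec_mulVec, ← mul_kronecker_mul]
    rw [XV_comm F hv hw, smul_kronecker, smul_mulVec]
  rcases zmod2_cases (ip v w) with e | e <;> rw [e] at a3 ⊢
  · exact B_ext (by simp [sM_xL]) (fun u _ => a2 u) (by rw [a3, chi_zero, one_smul, if_pos rfl])
  · rw [if_neg one_ne_zero]
    exact B_ext (by simp only [sM_xL, sM_zL]) (fun u _ => by rw [a2, ph_zL])
      (by rw [a3, uu_zL, chi_one, neg_one_smul])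

theorem lam_ne (hr : IsMin r) : lamT (xL F r) (ax r 0 1) ≠ 0 := by
  obtain ⟨w, hw, e⟩ := exists_ip hr
  obtain ⟨g, hg, eg⟩ := exists_GG (xL F w) (xL_pres hw)
  have e1 := lamT_conj hg (T := xL F r) (T' := zL F * xL F r) (fun b => by
    rw [eg, eg, xL_comm hw hr.1, ip_comm, e, if_neg one_ne_zero]; rfl) (ax r 0 1)
  have e2 : g (ax r 0 1) = -ax r 0 1 := by
    rw [eg, ← neg_one_smul F]
    refine B_ext (by rw [sM_xL, sM_smul, sM_ax]; simp) (fun v _ => ?_)
      (by rw [uu_xL, uu_smul, uu_ax]; simp)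
    rw [ph_xL hw, ph_smul, ph_ax hr, del]
    split_ifs with h
    · rcases h with rfl | rfl
      · rw [ip_comm, e, chi_one]
      · rw [ip_neg hw hr.1, ip_comm, e, chi_one]
    · simp
  have e3 : zL F = 1 - (2 : F) • (Cen0.odL ∘ₗ Cen0.uuL) := LinearMap.ext fun b => by
    have k : (1 - (2 : F) • (Cen0.odL ∘ₗ Cen0.uuL) : Module.End F (B F)) b =
        b + (-2 : F) • mk 0 0 (uu b) := by rw [neg_smul, ← sub_eq_add_neg]; rfl
    rw [k]
    exact B_ext (by rw [sM_zL, sM_add, sM_smul, sM_mk transpose_zero, smul_zero, add_zero])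
      (fun v _ => by rw [ph_zL, ph_add, ph_smul, ph_mk_zero, mul_zero, add_zero])
      (by rw [uu_zL, uu_add, uu_smul, uu_mk]; module)
  have e4 : (Cen0.uuL ∘ₗ (xL F r * ad (ax r (0 : F) 1))) ∘ₗ Cen0.odL =
      toLin' ((12 : F) • ((XV F r ⊗ₖ (1 : Matrix GolayPt GolayPt F)) *
        (XV F r ⊗ₖ ((4 : F) • (1 : Matrix GolayPt GolayPt F) - PP F r)))) := LinearMap.ext fun u => by
    have k : uu (ad (ax r (0 : F) 1) (mk 0 0 u)) = (2 : F) • Lb (ax r 0 1) *ᵥ u := funext fun p => by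
      have := Nb_ad (ax r (0 : F) 1) (mk 0 0 u) (mk 0 0 (Pi.single p 1))
      rw [Tr_ax hr, Nb_mk, Lb_dot] at this
      simpa [ph_mk_zero, uu_mk] using this
    change uu (xL F r (ad (ax r (0 : F) 1) (mk 0 0 u))) = _
    rw [uu_xL, k, Lb, sM_ax, zero_smul, Cen2.LL_del hr fun v _ => ph_ax hr 0 1 v, toLin'_apply,
      smul_mulVec, smul_mulVec, mulVec_smul, mulVec_smul, mulVec_mulVec, smul_smul]
    norm_num
  have e5 : LinearMap.trace F (B F) ((Cen0.odL ∘ₗ Cen0.uuL) * (xL F r * ad (ax r (0 : F) 1))) =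
      12 * (4096 * 64) := by
    rw [Module.End.mul_eq_comp, LinearMap.comp_assoc, LinearMap.trace_comp_comm', e4,
      trace_toLin'_eq, trace_smul, ← mul_kronecker_mul, trace_kronecker, XV_mul_self F hr.1,
      qn_min hr.2, chi_zero, one_smul, trace_one_Cw, Matrix.one_mul, trace_sub, trace_smul,
      trace_one_pt, trace_PP hr]
    norm_num
  rw [e2, map_neg, lamT_apply, mul_assoc, e3, sub_mul, one_mul, smul_mul_assoc, map_sub, map_smul, e5,
    ← lamT_apply] at e1
  intro c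
  rw [c] at e1
  norm_num at e1

theorem act_q {h : B F ≃ₗ[F] B F} (hh : h ∈ GG F) (hz : ∀ b, h (zL F b) = zL F (h b)) {g : Co0}
    (hx : ∀ v ∈ leechLattice, (∀ b, h (xL F v b) = xL F (gV g v) (h b)) ∨
      ∀ b, h (xL F v b) = zL F (xL F (gV g v) (h b))) {s : Vec} (hs : IsMin s) (b : B F) :
    qv (sM (h b)) (gV g s) = qv (sM b) s := by
  obtain ⟨g', hg⟩ := cen_core hh hz
  obtain ⟨h1, ε, hε⟩ := hg s hs
  have : gV g' s = gV g s ∨ gV g' s = -gV g s := by
    refine min_congr (hs.gV g) (hs.gV g') (ip_nondeg (add_mem (gV_mem g hs.1) (gV_mem g' hs.1))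
      fun w hw => ?_)
    have hv := gV_mem g⁻¹ hw
    have e : ph (h (xL F (gV g⁻¹ w) (ax s 0 1))) (gV g' s) =
        ph (xL F (gV g (gV g⁻¹ w)) (h (ax s 0 1))) (gV g' s) := by
      rcases hx _ hv with e | e <;> rw [e]
      rw [ph_zL]
    rw [gV_gV_inv, ph_xL hw, hε, hε, ph_xL hv, ph_ax hs, del_self, mul_left_comm] at e
    have e' := chi_inj two_ne (mul_right_cancel₀ (by simpa using chi_ne (F := F) ε) e)
    rw [ip_add (gV_mem g hs.1) (gV_mem g' hs.1) hw, ip_comm (gV g' s), ← e', ← ip_gV g hv hs.1,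
      gV_gV_inv, ip_comm, CharTwo.add_self_eq_zero]
  rcases this with e | e
  · rw [← e]; exact h1 b
  · rw [← qv_neg, ← e]; exact h1 b

/-- a fixed minimal vector -/
def r0 : Vec := Pi.single none 4 + Pi.single (some 0) 4

theorem min_r0 : IsMin r0 := Iso.isMin_pair (by decide) (.inl rfl)

theorem qv_pair {s : Matrix GolayPt GolayPt F} (hs : sᵀ = s) (i j : GolayPt) (a c : ℤ) :
    qv s (Pi.single i c + Pi.single j a) = c ^ 2 * s i i + 2 * a * c * s i j + a ^ 2 * s j j := by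
  have e : vF F (Pi.single i c + Pi.single j a) = Pi.single i (c : F) + Pi.single j (a : F) :=
    funext fun k => by simp only [vF, Pi.add_apply, Pi.single_apply]; split_ifs <;> simp
  have e3 : s j i = s i j := congrFun (congrFun hs i) j
  simp only [qv, e, add_dotProduct, single_dotProduct, mulVec_add, Pi.add_apply, mulVec_single,
    op_smul_eq_smul, Pi.smul_apply, smul_eq_mul, col_apply, e3]
  ring

theorem sym_r0 {s : Matrix GolayPt GolayPt F} (hs : sᵀ = s)
    (h : ∀ v w, IsMin v → IsMin w → dotInt r0 v = dotInt r0 w → dotInt r0 v = 0 ∨ dotInt r0 v = 16 →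
      qv s v = qv s w) : ∃ α β : F, s = α • 1 + β • PP F r0 := by
  have d : ∀ (i j : GolayPt) (a : ℤ), dotInt r0 (Pi.single i 4 + Pi.single j a) = 4 * r0 i + a * r0 j :=
    fun i j a => by rw [dot_add_right, dot_single_right, dot_single_right]
  have k : ∀ i j k l : GolayPt, i ≠ j → k ≠ l → ∀ a c : ℤ, a = 4 ∨ a = -4 → c = 4 ∨ c = -4 →
      4 * r0 i + a * r0 j = 4 * r0 k + c * r0 l → 4 * r0 i + a * r0 j = 0 ∨ 4 * r0 i + a * r0 j = 16 →
      16 * s i i + 8 * a * s i j + a ^ 2 * s j j = 16 * s k k + 8 * c * s k l + c ^ 2 * s l l :=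
    fun i j k l h1 h2 a c ha hc e1 e2 => by
      have := h _ _ (Iso.isMin_pair h1 ha) (Iso.isMin_pair h2 hc) (by rwa [d, d]) (by rwa [d])
      rw [qv_pair hs, qv_pair hs] at this
      push_cast at this
      linear_combination this
  have z0 : ∀ i : GolayPt, i ≠ none → i ≠ some 0 → r0 i = 0 := fun i h1 h2 => by simp [r0, h1, h2]
  have z1 : r0 none = 4 := rfl
  have z2 : r0 (some 0) = 4 := rfl
  have off : ∀ i j : GolayPt, i ≠ j → r0 j = 0 → s i j = 0 := fun i j hij hj => by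
    have := k i j i j hij hij 4 (-4) (.inl rfl) (.inr rfl) (by simp [hj]) (by
      rw [hj]
      by_cases h1 : i = none
      · rw [h1, z1]; simp
      by_cases h2 : i = some 0
      · rw [h2, z2]; simp
      · rw [z0 i h1 h2]; simp)
    push_cast at this
    linear_combination (1 / 64) * this
  have sy : ∀ i j, s i j = s j i := fun i j => (congrFun (congrFun hs i) j).symm
  have e1 := k none (some 1) (some 0) (some 1) (by decide) (by decide) 4 4 (.inl rfl) (.inl rfl) rfl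
    (.inr rfl)
  have e2 := k none (some 0) (some 1) (some 2) (by decide) (by decide) (-4) 4 (.inr rfl) (.inl rfl) rfl
    (.inl rfl)
  have dg : ∀ i : GolayPt, r0 i = 0 → s i i = s (some 1) (some 1) := fun i hi => by
    obtain ⟨j, h1, h2, h3⟩ : ∃ j : GolayPt, i ≠ j ∧ some 1 ≠ j ∧ r0 j = 0 := by
      by_cases c : i = some 2
      · exact ⟨some 3, by rw [c]; decide, by decide, rfl⟩
      · exact ⟨some 2, c, by decide, rfl⟩
    have := k i j (some 1) j h1 h2 4 4 (.inl rfl) (.inl rfl) (by rw [hi]; rfl) (by simp [hi, h3])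
    rw [off i j h1 h3, off _ j h2 h3] at this
    linear_combination (1 / 16) * this
  rw [off none (some 1) (by decide) rfl, off (some 0) (some 1) (by decide) rfl] at e1
  rw [off (some 1) (some 2) (by decide) rfl, dg (some 2) rfl] at e2
  push_cast at e1 e2
  refine ⟨s (some 1) (some 1), s none (some 0) / 16, Matrix.ext fun i j => ?_⟩
  simp only [Matrix.add_apply, Matrix.smul_apply, one_apply, PP, vecMulVec_apply, vF, smul_eq_mul]
  by_cases hj : r0 j = 0
  · split_ifs with c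
    · rw [c, dg j hj, hj]; simp
    · rw [off i j c hj, hj]; simp
  by_cases hi : r0 i = 0
  · rw [sy, off j i (fun c => hj (c ▸ hi)) hi, if_neg (fun c : i = j => hj (c ▸ hi)), hi]
    simp
  have ci : i = none ∨ i = some 0 := by by_contra c; exact hi (z0 i (c <| .inl ·) (c <| .inr ·))
  have cj : j = none ∨ j = some 0 := by by_contra c; exact hj (z0 j (c <| .inl ·) (c <| .inr ·))
  rcases ci with rfl | rfl <;> rcases cj with rfl | rfl <;> simp only [z1, z2, if_true, reduceCtorEq,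
    if_false, Int.cast_ofNat]
  · linear_combination (1 / 32) * e1 + (1 / 32) * e2
  · ring
  · rw [sy]; ring
  · linear_combination -(1 / 32) * e1 + (1 / 32) * e2

theorem exists_sep (hr : IsMin r) {v : Vec} (hv : IsMin v) (h : ¬ (v = r ∨ v = -r)) :
    ∃ w ∈ leechLattice, ip w r = 0 ∧ ip w v = 1 := by
  obtain ⟨w1, h1, e1⟩ := exists_ip hv
  obtain ⟨w2, h2, e2⟩ : ∃ w ∈ leechLattice, ip (r + v) w = 1 := by
    by_contra c
    exact h (min_congr hr hv (ip_nondeg (add_mem hr.1 hv.1) fun w hw =>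
      (zmod2_cases _).resolve_right fun e => c ⟨w, hw, e⟩))
  rw [ip_add hr.1 hv.1 h2] at e2
  rcases zmod2_cases (ip r w1) with a | a
  · exact ⟨w1, h1, ip_comm _ _ ▸ a, ip_comm _ _ ▸ e1⟩
  rcases zmod2_cases (ip r w2) with c | c
  · exact ⟨w2, h2, ip_comm _ _ ▸ c, by rw [ip_comm, ← e2, c, zero_add]⟩
  · refine ⟨w1 + w2, add_mem h1 h2, ?_, ?_⟩
    · rw [ip_add h1 h2 hr.1, ip_comm w1, ip_comm w2, a, c]; rfl
    · rw [ip_add h1 h2 hv.1, ip_comm w1, ip_comm w2, e1, ← c, e2, c]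

theorem exists_fix : ∃ η : F, (η = 1 ∨ η = -1) ∧ ∀ h ∈ GG F, (∀ b, h (xL F r0 b) = xL F r0 (h b)) →
    h (ax r0 1 (32 * η)) = ax r0 1 (32 * η) := by
  have hr := min_r0
  obtain ⟨a, ha⟩ := exists_dual (lamT (xL F r0))
  have fx : ∀ h ∈ GG F, (∀ b, h (xL F r0 b) = xL F r0 (h b)) → h a = a := fun h hh e =>
    Nb_ext fun c => by
      obtain ⟨c, rfl⟩ := h.surjective c
      rw [Nb_GG hh, ha, ha, lamT_conj hh e]
  have a1 : uu a = 0 := by
    obtain ⟨g, hg, eg⟩ := exists_GG (zL F) zL_pres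
    have := congrArg uu (fx g hg fun b => by rw [eg, eg, xL_zL hr.1])
    rw [eg, uu_zL] at this
    exact Cen0.self_neg (F := F) this.symm
  have a2 : ∀ v, IsMin v → ph a v = ph a r0 * del r0 v := fun v hv => by
    rw [del]
    split_ifs with c
    · rcases c with rfl | rfl
      · rw [mul_one]
      · rw [ph_neg, mul_one]
    obtain ⟨w, hw, e1, e2⟩ := exists_sep hr hv c
    obtain ⟨g, hg, eg⟩ := exists_GG (xL F w) (xL_pres hw)
    have := congrArg (ph · v) (fx g hg fun b => by rw [eg, eg, xL_comm hw hr.1, if_pos e1])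
    simp only [eg, ph_xL hw, e2, chi_one] at this
    linear_combination -(1 / 2) * this
  have a3 : ∀ g : Co0, gV g r0 = r0 → ∀ v, IsMin v → qv (sM a) (gV g v) = qv (sM a) v :=
    fun g e v hv => by
      obtain ⟨f, f1, f2, f3⟩ := exists_act (F := F) g
      obtain ⟨h, hh, eh⟩ := exists_GG f f1
      rw [← act_q hh (by simpa only [eh] using f2) (by simpa only [eh] using f3) hv a]
      rcases f3 r0 hr.1 with c | c <;> rw [e] at c
      · rw [fx h hh (by simpa only [eh] using c)]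
      · obtain ⟨w, hw, e1⟩ := exists_ip hr
        obtain ⟨y, hy, ey⟩ := exists_GG (xL F w) (xL_pres hw)
        have := fx (y * h) (mul_mem hy hh) fun b => by
          rw [LinearEquiv.mul_apply, LinearEquiv.mul_apply, eh, eh, ey, ey, c, xL_zL hw,
            xL_comm hw hr.1, ip_comm, e1, if_neg one_ne_zero, zL_zL]
        rw [LinearEquiv.mul_apply, ey] at this
        rw [← sM_xL w (h a), this]
  obtain ⟨α, β, e⟩ := sym_r0 (sM_symm a) fun v w hv hw e1 e2 => by
    rcases e2 with e2 | e2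
    · obtain ⟨g, g1, g2⟩ := trans_pair_0 ⟨r0, hr.1⟩ ⟨v, hv.1⟩ ⟨r0, hr.1⟩ ⟨w, hw.1⟩ hr.2 hr.2 hv.2 hw.2
        e2 (e1 ▸ e2)
      rw [← a3 g ((gV_coe g ⟨r0, hr.1⟩).trans (congrArg Subtype.val g1)) v hv,
        (gV_coe g ⟨v, hv.1⟩).trans (congrArg Subtype.val g2)]
    · obtain ⟨g, g1, g2⟩ := trans_pair_m16 ⟨r0, hr.1⟩ ⟨-v, hv.neg.1⟩ ⟨r0, hr.1⟩ ⟨-w, hw.neg.1⟩ hr.2 hr.2
        hv.neg.2 hw.neg.2 (by rw [dot_neg_right, e2]) (by rw [dot_neg_right, ← e1, e2])
      rw [← qv_neg, ← a3 g ((gV_coe g ⟨r0, hr.1⟩).trans (congrArg Subtype.val g1)) _ hv.neg,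
        (gV_coe g ⟨-v, hv.neg.1⟩).trans (congrArg Subtype.val g2), qv_neg]
  have hγ : ph a r0 ≠ 0 := fun c => lam_ne (F := F) hr (by rw [← ha, Nb_comm, Nb_ax hr, c]; simp)
  have a4 : a = α • eB F + ax r0 β (ph a r0) :=
    B_ext (by rw [sM_add, sM_smul, sM_eB, sM_ax, e]) (fun v hv => by
      rw [ph_add, ph_smul, ph_eB, ph_ax hr, mul_zero, zero_add, a2 v hv])
      (by rw [a1, uu_add, uu_smul, uu_eB, uu_ax, smul_zero, add_zero])
  generalize ph a r0 = γ at hγ a4
  have f1 : ∀ h ∈ GG F, (∀ b, h (xL F r0 b) = xL F r0 (h b)) → h (ax r0 β γ) = ax r0 β γ :=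
    fun h hh c => by
      have := fx h hh c
      rwa [a4, map_add, map_smul, fix_eB hh, add_right_inj] at this
  have f2 : ∀ η s t : F, s * β + t * (49152 * β ^ 2 + 48 * γ ^ 2) = 1 →
      s * γ + t * (98304 * β * γ) = 32 * η → ∀ h ∈ GG F, (∀ b, h (xL F r0 b) = xL F r0 (h b)) →
      h (ax r0 1 (32 * η)) = ax r0 1 (32 * η) := fun η s t e1 e2 h hh c => by
    rw [← e2, ← e1, ← ax_lin hr, ← ad_ax hr, map_add, map_smul, map_smul, ad_GG hh, f1 h hh c]
  by_cases c : γ = 32 * β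
  · have b0 : β ≠ 0 := fun d => hγ (by rw [c, d, mul_zero])
    exact ⟨1, .inl rfl, f2 1 β⁻¹ 0 (by field_simp; ring) (by rw [c]; field_simp; ring)⟩
  by_cases c' : γ = -32 * β
  · have b0 : β ≠ 0 := fun d => hγ (by rw [c', d, mul_zero])
    exact ⟨-1, .inr rfl, f2 (-1) β⁻¹ 0 (by field_simp; ring) (by rw [c']; field_simp; ring)⟩
  have n1 : γ - 32 * β ≠ 0 := sub_ne_zero.2 c
  have n2 : γ + 32 * β ≠ 0 := fun d => c' (by linear_combination d)
  exact ⟨1, .inl rfl, f2 1 (32 / γ - 2048 * β / (γ * (γ + 32 * β))) (1 / (48 * γ * (γ + 32 * β)))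
    (by field_simp; ring) (by field_simp; ring)⟩

end Cfsg.Agent.H97.GA.Ax
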