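import Cfsg.Agent.H97.GaFix
import Cfsg.Agent.H97.GaT3

/-! The Griess algebra: the trilinear form in components and the multiplication operators. -/

set_option autoImplicit false
set_option linter.unusedSectionVars false

namespace Cfsg.Agent.H23.GA

open H15 H97.GA Matrix
open scoped Kronecker Classical

attribute [-simp] Fintype.sum_option Fintype.prod_option

variable {F : Type*} [Field F] [Big F]

/-- the value of the quadratic form of a matrix -/
noncomputable def qv (s : Matrix GolayPt GolayPt F) (v : Vec) : F := vF F v ⬝ᵥ s *ᵥ vF F v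

theorem qv_add (s s' : Matrix GolayPt GolayPt F) (v : Vec) : qv (s + s') v = qv s v + qv s' v := by
  rw [qv, add_mulVec, dotProduct_add]; rfl

theorem qv_smul (t : F) (s : Matrix GolayPt GolayPt F) (v : Vec) : qv (t • s) v = t * qv s v := by
  rw [qv, smul_mulVec, dotProduct_smul]; rfl

theorem qv_zero (v : Vec) : qv (0 : Matrix GolayPt GolayPt F) v = 0 := by simp [qv]

theorem vF_neg (v : Vec) : vF F (-v) = -vF F v := funext fun i => by simp [vF]

theorem qv_neg (s : Matrix GolayPt GolayPt F) (v : Vec) : qv s (-v) = qv s v := by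
  simp [qv, vF_neg, mulVec_neg]

theorem qv_PP (r v : Vec) : qv (PP F r) v = (dotInt v r : F) ^ 2 := by
  rw [qv, PP, vecMulVec_mulVec, op_smul_eq_smul, dotProduct_smul, vF_dot, vF_dot, dot_comm r v,
    smul_eq_mul, sq]

theorem trace_PP_mul (r : Vec) (s : Matrix GolayPt GolayPt F) : trace (PP F r * s) = qv s r := by
  rw [PP, vecMulVec_mul, trace_vecMulVec, qv, dotProduct_mulVec, dotProduct_comm]

/-- the action on the odd part -/
noncomputable def Lb (b : B F) : Matrix (Cw × GolayPt) (Cw × GolayPt) F := LL (sM b) (ph b)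

theorem Lb_add (b c : B F) : Lb (b + c) = Lb b + Lb c := by
  simp only [Lb, LL, sM_add, ph_add, trace_add, mul_add, add_smul, smul_add, kronecker_add,
    Finset.sum_add_distrib]
  abel

theorem Lb_smul (t : F) (b : B F) : Lb (t • b) = t • Lb b := by
  simp only [Lb, LL, sM_smul, ph_smul, trace_smul, smul_add, Finset.smul_sum, ← kronecker_smul,
    smul_smul, smul_eq_mul]
  simp only [mul_assoc, mul_comm t]

theorem Lb_dot (b : B F) (u w : Cw × GolayPt → F) : u ⬝ᵥ Lb b *ᵥ w = w ⬝ᵥ Lb b *ᵥ u := by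
  rw [dotProduct_mulVec, ← mulVec_transpose, Lb, LL_transpose (sM_symm b), dotProduct_comm]

/-- a trilinear form with diagonal `Phi` -/
noncomputable def th3 (a b c : B F) : F :=
  512 * trace (sM a * sM b * sM c) + 24 * ∑ r ∈ M2, qv (sM a) r * (ph b r * ph c r) +
    64 * T3 (ph a) (ph b) (ph c) + uu b ⬝ᵥ Lb a *ᵥ uu c

theorem Phi_eq (b : B F) : Phi b = th3 b b b := by simp only [Phi, th3, qv, Lb, sq]

theorem th3_add1 (a a' b c : B F) : th3 (a + a') b c = th3 a b c + th3 a' b c := by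
  simp only [th3, T3, sM_add, ph_add, Lb_add, qv_add, add_mul, mul_add, trace_add, add_mulVec,
    dotProduct_add, Finset.sum_add_distrib]
  ring

theorem th3_add2 (a b b' c : B F) : th3 a (b + b') c = th3 a b c + th3 a b' c := by
  simp only [th3, T3, sM_add, ph_add, uu_add, add_mul, mul_add, trace_add, add_dotProduct,
    Finset.sum_add_distrib]
  ring

theorem th3_add3 (a b c c' : B F) : th3 a b (c + c') = th3 a b c + th3 a b c' := by
  simp only [th3, T3, sM_add, ph_add, uu_add, mul_add, trace_add, mulVec_add, dotProduct_add,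
    Finset.sum_add_distrib]
  ring

theorem Tr_th3 (a b c : B F) : Tr a b c =
    th3 a b c + th3 a c b + th3 b a c + th3 b c a + th3 c a b + th3 c b a := by
  simp only [Tr, Phi_eq, th3_add1, th3_add2, th3_add3]
  ring

theorem tr3_swap (a b c : B F) : trace (sM a * sM c * sM b) = trace (sM a * sM b * sM c) := by
  rw [← trace_transpose, transpose_mul, transpose_mul, sM_symm, sM_symm, sM_symm,
    ← Matrix.mul_assoc, trace_mul_cycle]

theorem Tr_eq (a b c : B F) : Tr a b c = 3072 * trace (sM a * sM b * sM c) +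
    48 * ∑ r ∈ M2, (qv (sM a) r * (ph b r * ph c r) + qv (sM b) r * (ph a r * ph c r) +
      qv (sM c) r * (ph a r * ph b r)) + 384 * T3 (ph a) (ph b) (ph c) +
    2 * (uu b ⬝ᵥ Lb a *ᵥ uu c + uu a ⬝ᵥ Lb b *ᵥ uu c + uu a ⬝ᵥ Lb c *ᵥ uu b) := by
  have e1 := tr3_swap a b c
  have e2 : trace (sM b * sM c * sM a) = trace (sM a * sM b * sM c) := trace_mul_cycle _ _ _
  have e3 : trace (sM c * sM a * sM b) = trace (sM a * sM b * sM c) :=
    (trace_mul_cycle _ _ _).symm
  have f1 := T3_swap' (ph a) (ev_ph b) (ev_ph c)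
  have f2 := T3_swap (ph a) (ph b) (ev_ph c)
  have f3 := T3_swap' (ph b) (ev_ph a) (ev_ph c)
  have f4 := T3_swap (ph a) (ph c) (ev_ph b)
  have f5 := T3_swap' (ph c) (ev_ph a) (ev_ph b)
  simp only [Tr_th3, th3, tr3_swap b c a, tr3_swap c a b, e1, e2, e3, ← f5, ← f4, ← f3, ← f2, ← f1,
    Lb_dot a (uu c), Lb_dot b (uu c), Lb_dot c (uu b), Finset.sum_add_distrib, mul_comm (ph c _),
    mul_comm (ph b _) (ph a _)]
  ring

theorem Tr_comm (a b c : B F) : Tr a b c = Tr b a c := by
  rw [Tr, Tr, add_comm b a]; ring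

theorem Tr_add (a a' b c : B F) : Tr (a + a') b c = Tr a b c + Tr a' b c := by
  simp only [Tr_th3, th3_add1, th3_add2, th3_add3]
  ring

theorem Tr_smul (t : F) (a b c : B F) : Tr (t • a) b c = t * Tr a b c := by
  simp only [Tr_eq, T3, sM_smul, ph_smul, uu_smul, Lb_smul, qv_smul, Matrix.smul_mul, trace_smul,
    smul_mulVec, dotProduct_smul, smul_dotProduct, smul_eq_mul, mul_add, Finset.mul_sum,
    Finset.sum_add_distrib]
  simp only [mul_left_comm _ t, mul_assoc]

/-- the invariant bilinear form -/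
noncomputable def NB : LinearMap.BilinForm F (B F) :=
  LinearMap.mk₂ F Nb Nb_add Nb_smul (fun a b c => by rw [Nb_comm, Nb_add, Nb_comm b, Nb_comm c])
    fun t a b => by rw [Nb_comm, Nb_smul, Nb_comm b]; rfl

theorem NB_nd : (NB (F := F)).Nondegenerate :=
  ⟨fun _ h => eq_zero_of_Nb h, fun _ h => eq_zero_of_Nb fun c => (Nb_comm _ _).trans (h c)⟩

theorem Nb_ext {a b : B F} (h : ∀ c, Nb a c = Nb b c) : a = b :=
  sub_eq_zero.1 (eq_zero_of_Nb fun c => by
    rw [sub_eq_add_neg, Nb_add, ← neg_one_smul F, Nb_smul, h]; ring)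

theorem exists_dual (l : B F →ₗ[F] F) : ∃ a, ∀ c, Nb a c = l c :=
  ⟨(NB.toDual NB_nd).symm l, fun c => LinearMap.BilinForm.apply_toDual_symm_apply (hB := NB_nd) l c⟩

theorem exists_ad : ∃ ad : B F →ₗ[F] Module.End F (B F), ∀ a b c, Nb (ad a b) c = Tr a b c := by
  choose m hm using fun a b : B F => exists_dual
    { toFun := Tr a b
      map_add' := fun c c' => by
        rw [Tr_swap, Tr_comm, Tr_add, Tr_comm c, Tr_comm c', Tr_swap a c, Tr_swap a c']
      map_smul' := fun t c => by rw [Tr_swap, Tr_comm, Tr_smul, Tr_comm c, Tr_swap a c]; rfl }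
  have hm' : ∀ a b c, Nb (m a b) c = Tr a b c := hm
  refine ⟨LinearMap.mk₂ F m (fun a a' b => Nb_ext fun c => ?_) (fun t a b => Nb_ext fun c => ?_)
    (fun a b b' => Nb_ext fun c => ?_) (fun t a b => Nb_ext fun c => ?_), hm'⟩
  · rw [Nb_add, hm', hm', hm', Tr_add]
  · rw [Nb_smul, hm', hm', Tr_smul]
  · rw [Nb_add, hm', hm', hm', Tr_comm, Tr_add, Tr_comm b, Tr_comm b']
  · rw [Nb_smul, hm', hm', Tr_comm, Tr_smul, Tr_comm]

/-- multiplication in the algebra -/
noncomputable def ad : B F →ₗ[F] Module.End F (B F) := exists_ad.choose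

theorem Nb_ad (a b c : B F) : Nb (ad a b) c = Tr a b c := exists_ad.choose_spec a b c

theorem ad_GG {g : B F ≃ₗ[F] B F} (hg : g ∈ GG F) (a b : B F) : g (ad a b) = ad (g a) (g b) :=
  Nb_ext fun c => by
    obtain ⟨c, rfl⟩ := g.surjective c
    rw [Nb_GG hg, Nb_ad, Nb_ad, Tr_GG hg]

end Cfsg.Agent.H23.GA
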